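-- Team project OELM (S5990, helper58), regime [R2E] (helper12), package [ELLA] (helper25):
-- a-type on the whole space, which is not of plus type: invariant elliptic m-spaces.
import Mathlib
import Cfsg.Agent.Lib.Helper12.OElmE.Defs

set_option autoImplicit false
open scoped MatrixGroups
open Matrix

namespace Cfsg.Agent.Lib.Helper25.OElmE

open Cfsg.Agent.Lib.Helper23.OHyp Cfsg.Agent.Lib.Helper44.OElp
open Cfsg.Agent.Lib.Helper58.OElm Cfsg.Agent.Lib.Helper12.PHyp Cfsg.Agent.Lib.Helper12.OElmE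

universe u

/-- [ELLA] -/
theorem pkgEllA_of (hADec : PkgADec.{u}) (hG : PkgGeom2.{u}) (hDual : PkgDual.{u})
    (hSumE : PkgSumE.{u}) (hE : PkgNdEven.{u}) : PkgEllA.{u} := by
  intro F _ _ ι _ _ Q x hS hnP hA k m hcard hme hm2 hmk hkm
  classical
  have hQ := hS.nondeg
  have hInvTop : Inv x (⊤ : Submodule F (ι → F)) := le_top
  have hNdTop : Nd Q (⊤ : Submodule F (ι → F)) := by
    intro w _ hw0
    obtain ⟨⟨y, hy⟩, ⟨z, hz⟩⟩ := hQ.nondegenerate w hw0
    exact ⟨⟨y, Submodule.mem_top, hy⟩, ⟨z, Submodule.mem_top, hz⟩⟩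
  have hfr : Module.finrank F (⊤ : Submodule F (ι → F)) = 2 * k + 2 := by
    rw [finrank_top, Module.finrank_fintype_fun_eq_card, hcard]
  have hinvfix : ∀ W : Submodule F (ι → F), W ≤ fixSp x → Inv x W := by
    intro W hW
    apply inv_of_mulVec_mem
    intro v hv
    rw [fixSp_mem.1 (hW hv)]
    exact hv
  obtain ⟨s2, V1, -, hV1fix, hV1nd, hdim, hblk⟩ := hADec F ι Q x hS ⊤ hInvTop hNdTop hA
  rw [hfr] at hdim
  have hV1even : Even (Module.finrank F V1) := hE F ι Q hQ hS.two V1 hV1nd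
  -- V1 is not of plus type
  have hV1np : ¬ Plus Q V1 := by
    obtain ⟨WA, -, -, hWAnd, hWAplus, hWAdim, hWAperp⟩ := hblk s2 le_rfl
    obtain ⟨-, hsd, hsp⟩ := hSumE F ι Q hQ WA V1 hWAnd hV1nd hWAperp
    have htop : WA ⊔ V1 = ⊤ := by
      apply Submodule.eq_top_of_finrank_eq
      rw [hsd, hWAdim, Module.finrank_fintype_fun_eq_card, hcard, hdim]
    have h1 := hsp (by rw [hWAdim]; exact ⟨2 * s2, by ring⟩) hV1even
    rw [htop] at h1
    intro hp
    exact hnP (h1.mpr ⟨fun _ => hp, fun _ => hWAplus⟩)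
  have he1 : 2 ≤ Module.finrank F V1 := by
    by_contra hlt
    have h0 : Module.finrank F V1 = 0 := by
      obtain ⟨l, hl⟩ := hV1even
      omega
    apply hV1np
    show Cfsg.Geo.IsPlusTypeOn Q V1
    refine ⟨⊥, bot_le, ?_, ?_⟩
    · intro w hw
      rw [(Submodule.mem_bot F).mp hw]
      have h00 := hQ.smul 0 0
      simpa using h00
    · rw [finrank_bot, h0]
  -- elliptic subspaces of V1 of every even dimension between 2 and finrank V1
  have hell : ∀ e0 : ℕ, Even e0 → 2 ≤ e0 → e0 ≤ Module.finrank F V1 →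
      ∃ W0 : Submodule F (ι → F), W0 ≤ V1 ∧ Nd Q W0 ∧ ¬ Plus Q W0 ∧
        Module.finrank F W0 = e0 := by
    intro e0 he0 he02 he0le
    by_cases heq : e0 = Module.finrank F V1
    · exact ⟨V1, le_rfl, hV1nd, hV1np, heq.symm⟩
    · have hev : Even (Module.finrank F V1 - e0) := by
        obtain ⟨l, hl⟩ := hV1even
        obtain ⟨l', hl'⟩ := he0
        exact ⟨l - l', by omega⟩
      obtain ⟨P0, hP0le, hP0nd, hP0plus, hP0dim⟩ :=
        hG F ι Q hQ hS.two V1 hV1nd (Module.finrank F V1 - e0) hev (by omega)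
      obtain ⟨W0, hW0le, -, hW0nd, hW0np, hW0dim⟩ :=
        hDual F ι Q x hS V1 (hinvfix V1 hV1fix) hV1nd hV1np (Module.finrank F V1 - e0)
          ⟨P0, hP0le, hinvfix P0 (hP0le.trans hV1fix), hP0nd, hP0plus, hP0dim⟩
      exact ⟨W0, hW0le, hW0nd, hW0np, by omega⟩
  -- the choice of the number of blocks
  obtain ⟨t, hts, htlo, hthi⟩ :
      ∃ t, t ≤ s2 ∧ 4 * t + 2 ≤ m ∧ m ≤ 4 * t + Module.finrank F V1 := by
    obtain ⟨l, hl⟩ := hme
    obtain ⟨l1, hl1⟩ := hV1even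
    by_cases hm4 : m % 4 = 2
    · by_cases hc : (m - 2) / 4 ≤ s2
      · exact ⟨(m - 2) / 4, hc, by omega, by omega⟩
      · exact ⟨s2, le_rfl, by omega, by omega⟩
    · have hko : Odd k := by
        rcases hkm with h | h
        · exact h
        · exact absurd h hm4
      obtain ⟨j, hj⟩ := hko
      by_cases hc : (m - 4) / 4 ≤ s2
      · exact ⟨(m - 4) / 4, hc, by omega, by omega⟩
      · exact ⟨s2, le_rfl, by omega, by omega⟩
  obtain ⟨WA, -, hWAinv, hWAnd, hWAplus, hWAdim, hWAperp⟩ := hblk t hts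
  have hev0 : Even (m - 4 * t) := by
    obtain ⟨l, hl⟩ := hme
    exact ⟨l - 2 * t, by omega⟩
  obtain ⟨W0, hW0le, hW0nd, hW0np, hW0dim⟩ := hell (m - 4 * t) hev0 (by omega) (by omega)
  have hperp : Perp Q WA W0 := fun u hu v hv => hWAperp u hu v (hW0le hv)
  obtain ⟨hnd, hsd, hsp⟩ := hSumE F ι Q hQ WA W0 hWAnd hW0nd hperp
  have h1 := hsp (by rw [hWAdim]; exact ⟨2 * t, by ring⟩) (by rw [hW0dim]; exact hev0)
  refine ⟨WA ⊔ W0, le_top, inv_sup hWAinv (hinvfix W0 (hW0le.trans hV1fix)), hnd, ?_, ?_⟩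
  · intro hp
    exact hW0np ((h1.mp hp).mp hWAplus)
  · rw [hsd, hWAdim, hW0dim]
    omega

end Cfsg.Agent.Lib.Helper25.OElmE
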