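-- Team project OELM (S5990, helper58), regime [R2E] (helper12), package [NECCRITM] (helper25):
-- a-type, and the nondegenerate subspaces of the fixed space have dimension at most 2: every
-- invariant nondegenerate subspace of dimension divisible by 4 is of plus type.
import Mathlib
import Cfsg.Agent.Lib.Helper12.OElmE.Defs

set_option autoImplicit false
open scoped MatrixGroups
open Matrix

namespace Cfsg.Agent.Lib.Helper25.OElmE

open Cfsg.Agent.Lib.Helper23.OHyp Cfsg.Agent.Lib.Helper44.OElp
open Cfsg.Agent.Lib.Helper58.OElm Cfsg.Agent.Lib.Helper12.PHyp Cfsg.Agent.Lib.Helper12.OElmE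

universe u

/-- [NECCRITM] -/
theorem pkgNecCritM_of (hADec : PkgADec.{u}) : PkgNecCritM.{u} := by
  intro F _ _ ι _ _ Q x hS hA hfix W hInv hNd h4
  have hAW : AType Q x W := fun v _ => hA v Submodule.mem_top
  obtain ⟨s2, V', hV'W, hV'fix, hV'nd, hdim, hblk⟩ := hADec F ι Q x hS W hInv hNd hAW
  have h2 := hfix V' hV'fix hV'nd
  have h0 : Module.finrank F V' = 0 := by omega
  obtain ⟨WA, hWAW, -, -, hWAplus, hWAdim, -⟩ := hblk s2 le_rfl
  have hWA : WA = W := Submodule.eq_of_le_of_finrank_eq hWAW (by omega)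
  rw [← hWA]
  exact hWAplus

end Cfsg.Agent.Lib.Helper25.OElmE
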